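import Cfsg.Agent.Lib.ChevBN.Pair

/-!
# `B = UH` is solvable
-/

set_option autoImplicit false
set_option linter.unusedSectionVars false

namespace Cfsg.Agent.Lib.Chevalley.Solv

open Cfsg.Lie Cfsg.Agent.Lib.ChevBN Cfsg.Agent.Lib.ChevBN.Elem Cfsg.Agent.Lib.ChevBN.Table
open Cfsg.Agent.Lib.ChevBN.Rel Cfsg.Agent.Lib.ChevBN.Torus Cfsg.Agent.Lib.ChevBN.Pair

variable {D : ChevalleyDatum} {F : Type*} [Field F] {η : ℕ → ℕ → ℤ}
variable (hR : Sys D F η) (hT : Tbl D)
include hR hT

/-- Elements of `H` commute. -/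
theorem H_comm {a b : GL D.Idx F} (ha : a ∈ D.diagonalSubgroup F) (hb : b ∈ D.diagonalSubgroup F) : a * b = b * a := by
  obtain ⟨κ, _, h1, _⟩ := exists_of_mem_H hR hT ha
  obtain ⟨κ', _, h2, _⟩ := exists_of_mem_H hR hT hb
  apply Units.ext
  rw [Units.val_mul, Units.val_mul, h1, h2, dgMat_mul, dgMat_mul, mul_comm]

theorem borel_solvable (hU : Group.IsSolvable (D.posUnipotent F)) : Group.IsSolvable (D.borelSubgroup F) := by
  have hUB : D.posUnipotent F ≤ D.borelSubgroup F := le_sup_left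
  have hHB : D.diagonalSubgroup F ≤ D.borelSubgroup F := le_sup_right
  let N : Subgroup (D.borelSubgroup F) := (D.posUnipotent F).subgroupOf (D.borelSubgroup F)
  have hN : N.Normal := by
    constructor
    rintro ⟨x, hx⟩ hxN ⟨b, hb⟩
    rw [Subgroup.mem_subgroupOf] at hxN ⊢
    obtain ⟨u, hu, h, hh, rfl⟩ := (mem_B_iff hR hT).mp hb
    have h1 : h * x * h⁻¹ ∈ D.posUnipotent F := H_norm_U hR hT hh hxN
    have e : u * h * x * (u * h)⁻¹ = u * (h * x * h⁻¹) * u⁻¹ := by group
    show u * h * x * (u * h)⁻¹ ∈ D.posUnipotent F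
    rw [e]
    exact Subgroup.mul_mem _ (Subgroup.mul_mem _ hu h1) (Subgroup.inv_mem _ hu)
  have hq : Group.IsSolvable (D.borelSubgroup F ⧸ N) := by
    apply Group.isSolvable_of_comm
    intro a b
    induction a using QuotientGroup.induction_on with
    | H x =>
      induction b using QuotientGroup.induction_on with
      | H y =>
        obtain ⟨x, hx⟩ := x
        obtain ⟨y, hy⟩ := y
        obtain ⟨u, hu, h, hh, rfl⟩ := (mem_B_iff hR hT).mp hx
        obtain ⟨u', hu', h', hh', rfl⟩ := (mem_B_iff hR hT).mp hy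
        have e1 : ((⟨u * h, hx⟩ : D.borelSubgroup F) : D.borelSubgroup F ⧸ N) =
            ((⟨h, hHB hh⟩ : D.borelSubgroup F) : D.borelSubgroup F ⧸ N) := by
          have : (⟨u * h, hx⟩ : D.borelSubgroup F) = ⟨u, hUB hu⟩ * ⟨h, hHB hh⟩ := rfl
          rw [this, QuotientGroup.mk_mul]
          have h0 : ((⟨u, hUB hu⟩ : D.borelSubgroup F) : D.borelSubgroup F ⧸ N) = 1 :=
            (QuotientGroup.eq_one_iff _).2 (by rw [Subgroup.mem_subgroupOf]; exact hu)
          rw [h0, one_mul]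
        have e2 : ((⟨u' * h', hy⟩ : D.borelSubgroup F) : D.borelSubgroup F ⧸ N) =
            ((⟨h', hHB hh'⟩ : D.borelSubgroup F) : D.borelSubgroup F ⧸ N) := by
          have : (⟨u' * h', hy⟩ : D.borelSubgroup F) = ⟨u', hUB hu'⟩ * ⟨h', hHB hh'⟩ := rfl
          rw [this, QuotientGroup.mk_mul]
          have h0 : ((⟨u', hUB hu'⟩ : D.borelSubgroup F) : D.borelSubgroup F ⧸ N) = 1 :=
            (QuotientGroup.eq_one_iff _).2 (by rw [Subgroup.mem_subgroupOf]; exact hu')
          rw [h0, one_mul]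
        rw [e1, e2, ← QuotientGroup.mk_mul, ← QuotientGroup.mk_mul]
        congr 1
        exact Subtype.ext (H_comm hR hT hh hh')
  have hker : (QuotientGroup.mk' N).ker ≤ (Subgroup.inclusion hUB).range := by
    rintro ⟨x, hx⟩ hk
    rw [QuotientGroup.ker_mk', Subgroup.mem_subgroupOf] at hk
    exact ⟨⟨x, hk⟩, rfl⟩
  exact Group.isSolvable_of_ker_le_range (Subgroup.inclusion hUB) (QuotientGroup.mk' N) hker

end Cfsg.Agent.Lib.Chevalley.Solv
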